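import Mathlib
import Cfsg.Agent.Inv.CRing2
import Cfsg.Agent.Perm.Count
import Cfsg.Agent.S0718

set_option autoImplicit false
open Cfsg

namespace Cfsg.Agent.Fil

open Finset Matrix MulAction Cfsg.Agent.Char Cfsg.Agent.Inv.CR Module
open scoped ComplexConjugate

section
variable {G : Type*} [Group G] [Fintype G] {V : Type*} [AddCommGroup V] [Module ℂ V] [FiniteDimensional ℂ V]

/-- integrality of the isotypic traces of an integral intertwiner -/
theorem integral_inner (ρ : Representation ℂ G V) (f : Module.End ℂ V) (hf : ∀ g, Commute f (ρ g))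
    (hint : ∀ μ : ℂ, f.HasEigenvalue μ → IsIntegral ℤ μ) {χ : G → ℂ} (hχ : IsCharacter G χ) :
    IsIntegral ℤ (classInner (fun g => LinearMap.trace ℂ V (ρ g ∘ₗ f)) χ) := by
  classical
  have hds := DirectSum.isInternal_submodule_of_iSupIndep_of_iSup_eq_top
    f.independent_maxGenEigenspace f.iSup_maxGenEigenspace_eq_top
  have h_fin : {μ | f.maxGenEigenspace μ ≠ ⊥}.Finite :=
    WellFoundedGT.finite_ne_bot_of_iSupIndep f.independent_maxGenEigenspace
  let W : ℂ → Subrepresentation ρ := fun μ =>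
    ⟨f.maxGenEigenspace μ, fun g v hv => f.mapsTo_maxGenEigenspace_of_comm (hf g) μ hv⟩
  have key : (fun g => LinearMap.trace ℂ V (ρ g ∘ₗ f)) =
      ∑ μ ∈ h_fin.toFinset, μ • (W μ).toRepresentation.character := by
    funext g
    have hfg : ∀ μ, Set.MapsTo (ρ g ∘ₗ f) ↑(f.maxGenEigenspace μ) ↑(f.maxGenEigenspace μ) :=
      fun μ ↦ (f.mapsTo_maxGenEigenspace_of_comm (hf g) μ).comp (f.mapsTo_maxGenEigenspace_of_comm rfl μ)
    rw [LinearMap.trace_eq_sum_trace_restrict' hds h_fin hfg, Finset.sum_apply]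
    refine sum_congr rfl fun μ _ => ?_
    have hf' := f.mapsTo_maxGenEigenspace_of_comm (Commute.refl _) μ
    have hg' := f.mapsTo_maxGenEigenspace_of_comm (hf g) μ
    have h_comm : Commute ((ρ g).restrict (f.mapsTo_maxGenEigenspace_of_comm (hf g) μ))
        (f.restrict (f.mapsTo_maxGenEigenspace_of_comm rfl μ)) :=
      LinearMap.restrict_commute (hf g).symm _ _
    have := f.isNilpotent_restrict_maxGenEigenspace_sub_algebraMap μ
    rw [LinearMap.restrict_comp hf' hg', LinearMap.trace_comp_eq_mul_of_commute_of_isNilpotent μ h_comm this]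
    rfl
  rw [key, classInner_sum_left]
  refine IsIntegral.sum _ fun μ hμ => ?_
  rw [classInner_smul_left]
  obtain ⟨n, hn⟩ := classInner_isChar_nat (isChar_character (W μ).toRepresentation) hχ
  rw [hn]
  refine IsIntegral.mul (hint μ ?_) (by exact_mod_cast isIntegral_algebraMap (R := ℤ) (x := (n : ℤ)))
  rw [Set.Finite.mem_toFinset, Set.mem_setOf_eq, Module.End.maxGenEigenspace_eq] at hμ
  exact Module.End.hasEigenvalue_of_hasGenEigenvalue hμ

end

variable {G : Type*} [Group G] [Fintype G] {Ω : Type*} [MulAction G Ω] [Fintype Ω] [DecidableEq Ω]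

theorem toLin_pm (g : G) : Matrix.toLin' (pm Ω g) = permRep ℂ G Ω g := by
  refine LinearMap.ext fun w => funext fun u => ?_
  rw [Matrix.toLin'_apply, pm_mulVec]; rfl

theorem trace_mul_E {M : Matrix Ω Ω ℂ} (hM : IsInv G M) (hZ : ∀ u v, ∃ n : ℤ, M u v = n) {χ : G → ℂ}
    (hχ : IsCharacter G χ) : ∃ t : ℂ, IsIntegral ℤ t ∧ (E Ω χ * M).trace = χ 1 * t := by
  refine ⟨_, integral_inner (permRep ℂ G Ω) (Matrix.toLin' M) (fun g => ?_) (fun μ hμ => ?_) hχ, ?_⟩
  · rw [← toLin_pm]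
    change Matrix.toLin' M ∘ₗ Matrix.toLin' (pm Ω g) = Matrix.toLin' (pm Ω g) ∘ₗ Matrix.toLin' M
    rw [← Matrix.toLin'_mul, ← Matrix.toLin'_mul, hM.comm]
  · choose N hN using hZ
    have e : M = (Matrix.of N).map (algebraMap ℤ ℂ) := by ext u v; simp [hN]
    rw [Module.End.hasEigenvalue_iff_isRoot_charpoly, Matrix.charpoly_toLin', e, Matrix.charpoly_map] at hμ
    exact ⟨_, Matrix.charpoly_monic _, by rwa [Polynomial.IsRoot, Polynomial.eval_map] at hμ⟩
  · simp only [E, Finset.sum_mul, Matrix.trace_sum, Matrix.smul_mul, Matrix.trace_smul, classInner_def,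
      Finset.mul_sum, smul_eq_mul]
    refine sum_congr rfl fun g _ => ?_
    rw [← toLin_pm, ← Matrix.toLin'_mul, Matrix.trace_toLin'_eq]
    ring

theorem dvd_subdegree [IsPretransitive G Ω] (f : ℕ)
    (hf : ∀ χ : G → ℂ, IsIrrCharacter G χ → χ ≠ (fun _ => 1) → classInner (pc G Ω) χ ≠ 0 → ∃ m : ℕ, χ 1 = (f : ℂ) * m)
    (a b : Ω) (hab : b ≠ a) : f ∣ Nat.card (orbit (stabilizer G a) b) := by
  classical
  set k := Nat.card (orbit (stabilizer G a) b) with hk
  have hZ : ∀ u v, ∃ n : ℤ, ob G a b u v = n := fun u v => by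
    simp only [ob, of_apply]
    split_ifs
    exacts [⟨1, by simp⟩, ⟨0, by simp⟩]
  let o : IrrCharacter G := ⟨fun _ => 1, isIrr_one⟩
  have h0 : ∑ χ : IrrCharacter G, (E Ω (χ : G → ℂ) * ob G a b).trace = 0 := by
    rw [← Matrix.trace_sum, ← Finset.sum_mul, sum_E, one_mul, trace_ob hab]
  have h1 : (E Ω (o : G → ℂ) * ob G a b).trace = k := by
    have hn : (Fintype.card Ω : ℂ) ≠ 0 := by
      haveI : Nonempty Ω := ⟨a⟩
      exact_mod_cast Fintype.card_ne_zero
    rw [Matrix.trace_mul_comm]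
    simp only [Matrix.trace, Matrix.diag, Matrix.mul_apply, o, E_one_apply, ← Finset.sum_mul]
    simp only [(isInv_ob a b).sum_row a, sum_ob, sum_const, card_univ, nsmul_eq_mul]
    field_simp
    rfl
  have h2 : ∀ χ : IrrCharacter G, χ ≠ o → ∃ t : ℂ, IsIntegral ℤ t ∧ (E Ω (χ : G → ℂ) * ob G a b).trace = f * t := by
    intro χ hχ
    by_cases h : classInner (pc G Ω) χ = 0
    · exact ⟨0, isIntegral_zero, by rw [E_eq_zero χ.2 h]; simp⟩
    obtain ⟨m, hm⟩ := hf χ χ.2 (fun e => hχ (Subtype.ext e)) h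
    obtain ⟨t, ht, e⟩ := trace_mul_E (isInv_ob a b) hZ (irr_isChar χ)
    exact ⟨m * t, IsIntegral.mul (by exact_mod_cast isIntegral_algebraMap (R := ℤ) (x := (m : ℤ))) ht,
      by rw [e, hm, mul_assoc]⟩
  choose! t ht using h2
  rw [← Finset.add_sum_erase _ _ (mem_univ o), h1, sum_congr rfl fun χ hχ => (ht χ (ne_of_mem_erase hχ)).2,
    ← Finset.mul_sum] at h0
  have h3 : IsIntegral ℤ (-∑ χ ∈ univ.erase o, t χ) :=
    (IsIntegral.sum _ fun χ hχ => (ht χ (ne_of_mem_erase hχ)).1).neg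
  rcases Nat.eq_zero_or_pos f with rfl | hf0
  · simp only [Nat.cast_zero, zero_mul, add_zero, Nat.cast_eq_zero] at h0
    rw [h0]
  have hf' : (f : ℂ) ≠ 0 := by exact_mod_cast hf0.ne'
  have h4 : -∑ χ ∈ univ.erase o, t χ = algebraMap ℚ ℂ ((k : ℚ) / f) := by
    rw [map_div₀, map_natCast, map_natCast, eq_div_iff hf']
    linear_combination -h0
  rw [h4, isIntegral_algebraMap_iff (algebraMap ℚ ℂ).injective, IsIntegrallyClosed.isIntegral_iff] at h3
  obtain ⟨y, hy⟩ := h3
  have h5 : (k : ℤ) = f * y := by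
    have hf'' : (f : ℚ) ≠ 0 := by exact_mod_cast hf0.ne'
    rw [eq_div_iff hf''] at hy
    simp only [eq_intCast] at hy
    exact_mod_cast (by rw [← hy]; ring : (k : ℚ) = f * y)
  exact Int.natCast_dvd_natCast.1 ⟨y, h5⟩

omit [DecidableEq Ω] in
theorem inner_pc {Ω' : Type*} [MulAction G Ω'] [Fintype Ω'] :
    classInner (pc G Ω) (pc G Ω') = Nat.card (orbitRel.Quotient G (Ω × Ω')) := by
  classical
  have h := sum_card_fixedBy_eq_card_orbits_mul_card_group G (Ω × Ω')
  have h2 : ∑ g : G, pc G Ω g * conj (pc G Ω' g) = Nat.card (orbitRel.Quotient G (Ω × Ω')) * Nat.card G := by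
    rw [Nat.card_eq_fintype_card, Nat.card_eq_fintype_card, ← Nat.cast_mul, ← h]
    push_cast
    refine sum_congr rfl fun g _ => ?_
    rw [← Nat.card_eq_fintype_card, Perm.card_fixedBy_prod]
    simp [pc]
  rw [classInner_def, h2]
  have := card_ne_zero (G := G)
  field_simp

omit [DecidableEq Ω] in
/-- multiplicities of the permutation character -/
theorem exists_mult [IsPretransitive G Ω] (a : Ω) : ∃ m : IrrCharacter G → ℕ,
    (∀ χ : IrrCharacter G, classInner (pc G Ω) (χ : G → ℂ) = m χ) ∧ m ⟨fun _ => 1, isIrr_one⟩ = 1 ∧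
    ∑ χ, m χ ^ 2 = Nat.card (orbitRel.Quotient (stabilizer G a) Ω) ∧
    ∑ χ, (m χ : ℂ) * (χ : G → ℂ) 1 = Fintype.card Ω := by
  haveI : Nonempty Ω := ⟨a⟩
  choose m hm using fun χ : IrrCharacter G => classInner_isChar_nat (pc_isChar (G := G) (Ω := Ω)) (irr_isChar χ)
  refine ⟨m, hm, ?_, ?_, ?_⟩
  · have := hm ⟨fun _ => 1, isIrr_one⟩
    rw [inner_pc_one] at this
    exact_mod_cast this.symm
  · have := classInner_eq_sum (isChar_classFun (pc_isChar (G := G) (Ω := Ω))) (pc G Ω)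
    rw [inner_pc, ← card_orbits_prod a] at this
    simp only [hm, map_natCast] at this
    exact_mod_cast (by rw [this]; push_cast; simp only [sq] :
      ((∑ χ, m χ ^ 2 : ℕ) : ℂ) = Nat.card (orbitRel.Quotient (stabilizer G a) Ω))
  · have := classFun_apply_eq_sum (isChar_classFun (pc_isChar (G := G) (Ω := Ω))) 1
    simp only [hm] at this
    rw [← this]
    simp [pc]

end Cfsg.Agent.Fil
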